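import Mathlib

/-!
# The Lie-theoretic statement behind S4315 and S4317

`LieThm F q n`: a Lie algebra over `F`, finitely many elements `x i` with degrees `deg i` in
`ZMod q`; all commutators in the `x i` are ad-nilpotent of index `n`, and the commutators of degree
zero satisfy the linearised Engel identity of degree `n` on the algebra.  Then all long commutators
in the `x i` vanish.
-/

set_option autoImplicit false

universe u

namespace Cfsg.Agent.Zel

/-- the sum of the products `y j₁ * ⋯ * y j_k` over the injective sequences of length `k` in `S` -/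
def symProd {R ι : Type*} [Ring R] [DecidableEq ι] (y : ι → R) : ℕ → Finset ι → R
  | 0, _ => 1
  | k + 1, S => ∑ j ∈ S, y j * symProd y k (S.erase j)

/-- the value of a bracketing -/
def ev {L α : Type*} [Bracket L L] (x : α → L) : FreeMagma α → L
  | FreeMagma.of a => x a
  | FreeMagma.mul s t => ⁅ev x s, ev x t⁆

/-- the degree of a bracketing -/
def dg {M α : Type*} [Add M] (deg : α → M) : FreeMagma α → M
  | FreeMagma.of a => deg a
  | FreeMagma.mul s t => dg deg s + dg deg t

theorem symProd_zero {R ι : Type*} [Ring R] [DecidableEq ι] (y : ι → R) (S : Finset ι) :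
    symProd y 0 S = 1 := rfl

theorem symProd_succ {R ι : Type*} [Ring R] [DecidableEq ι] (y : ι → R) (k : ℕ) (S : Finset ι) :
    symProd y (k + 1) S = ∑ j ∈ S, y j * symProd y k (S.erase j) := rfl

theorem ev_of {L α : Type*} [Bracket L L] (x : α → L) (a : α) : ev x (FreeMagma.of a) = x a := rfl

theorem ev_mul {L α : Type*} [Bracket L L] (x : α → L) (s t : FreeMagma α) :
    ev x (s * t) = ⁅ev x s, ev x t⁆ := rfl

theorem dg_of {M α : Type*} [Add M] (deg : α → M) (a : α) : dg deg (FreeMagma.of a) = deg a := rfl

theorem dg_mul {M α : Type*} [Add M] (deg : α → M) (s t : FreeMagma α) :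
    dg deg (s * t) = dg deg s + dg deg t := rfl

/-- the graded form of Zelmanov's theorem -/
def LieThm (F : Type) [Field F] (q n : ℕ) : Prop :=
  ∀ (d : ℕ) (L : Type u) [LieRing L] [LieAlgebra F L] (x : Fin d → L) (deg : Fin d → ZMod q),
    (∀ t : FreeMagma (Fin d), (LieAlgebra.ad F L (ev x t)) ^ n = 0) →
    (∀ y : Fin n → FreeMagma (Fin d), (∀ i, dg deg (y i) = 0) →
      symProd (fun i => LieAlgebra.ad F L (ev x (y i))) n Finset.univ = 0) →
    ∃ c : ℕ, ∀ t : FreeMagma (Fin d), c ≤ t.length → ev x t = 0

/-- what the group-theoretic part uses -/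
def LieThmAll : Prop :=
  ∀ (p q n : ℕ) [Fact p.Prime], q.Prime → q ≠ p → LieThm.{u} (AlgebraicClosure (ZMod p)) q n

end Cfsg.Agent.Zel
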